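import Mathlib
import Cfsg.Agent.Lib.H9.SqZero
import Cfsg.Agent.Lib.ClassGeo.SLGen
import Cfsg.Prelude.Def_RootSubgroups

set_option autoImplicit false
set_option linter.unusedSimpArgs false
set_option linter.unusedVariables false
set_option linter.unusedSectionVars false

namespace CfsgLib.RootInv

open Matrix Matrix.SpecialLinearGroup

variable {F : Type*} [Field F] {N : ℕ}

abbrev SLn (N : ℕ) (F : Type*) [Field F] := Matrix.SpecialLinearGroup (Fin N) F

theorem exists_rep {i j : Fin N} (hij : i ≠ j) (t g : SLn N F) (c : F) (hc : c ≠ 0)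
    (h : ((g⁻¹ * t * g : SLn N F) : Matrix (Fin N) (Fin N) F) = Matrix.transvection i j c) :
    ∃ (u φ : Fin N → F), (t : Matrix (Fin N) (Fin N) F) = 1 + vecMulVec u φ ∧ φ ⬝ᵥ u = 0 ∧ u ≠ 0 ∧ φ ≠ 0 := by
  classical
  obtain ⟨G, hG⟩ : ∃ G : Matrix (Fin N) (Fin N) F, G = (g : Matrix (Fin N) (Fin N) F) := ⟨_, rfl⟩
  obtain ⟨G', hG'⟩ : ∃ G' : Matrix (Fin N) (Fin N) F, G' = ((g⁻¹ : SLn N F) : Matrix (Fin N) (Fin N) F) := ⟨_, rfl⟩
  have h1 : G * G' = 1 := by
    rw [hG, hG', ← coe_mul, mul_inv_cancel, coe_one]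
  have h2 : G' * G = 1 := by
    rw [hG, hG', ← coe_mul, inv_mul_cancel, coe_one]
  have h3 : G' * (t : Matrix (Fin N) (Fin N) F) * G = Matrix.transvection i j c := by
    rw [← h, coe_mul, coe_mul, hG, hG']
  have hS : (Matrix.single i j c : Matrix (Fin N) (Fin N) F) = vecMulVec (Pi.single i c) (Pi.single j 1) := by
    ext a b
    rcases eq_or_ne a i with rfl | h4
    · rcases eq_or_ne b j with rfl | h5
      · simp [Matrix.single_apply, vecMulVec_apply, Pi.single_apply]
      · simp [Matrix.single_apply, vecMulVec_apply, Pi.single_apply, h5, h5.symm]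
    · simp [Matrix.single_apply, vecMulVec_apply, Pi.single_apply, h4, h4.symm]
  have h6 : (t : Matrix (Fin N) (Fin N) F) = 1 + vecMulVec (G *ᵥ Pi.single i c) (Pi.single j 1 ᵥ* G') := by
    have e : (t : Matrix (Fin N) (Fin N) F) = G * (G' * (t : Matrix (Fin N) (Fin N) F) * G) * G' := by
      calc (t : Matrix (Fin N) (Fin N) F) = (G * G') * (t : Matrix (Fin N) (Fin N) F) * (G * G') := by rw [h1]; simp
        _ = _ := by simp only [mul_assoc]
    rw [e, h3, Matrix.transvection, hS, mul_add, add_mul, mul_one, h1, Matrix.mul_vecMulVec, Matrix.vecMulVec_mul]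
  refine ⟨_, _, h6, ?_, ?_, ?_⟩
  · rw [← Matrix.dotProduct_mulVec, Matrix.mulVec_mulVec, h2, Matrix.one_mulVec]
    simp [dotProduct, Pi.single_apply, hij.symm, hij]
  · intro h0
    have h7 := congrArg (fun w => G' *ᵥ w) h0
    simp only [Matrix.mulVec_mulVec, h2, Matrix.one_mulVec, Matrix.mulVec_zero] at h7
    have h8 := congrFun h7 i
    simp at h8
    exact hc h8
  · intro h0
    have h7 := congrArg (fun w => w ᵥ* G) h0
    simp only [Matrix.vecMul_vecMul, h2, Matrix.vecMul_one, Matrix.zero_vecMul] at h7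
    have h8 := congrFun h7 j
    simp at h8

theorem vmv_sq {u φ : Fin N → F} (h0 : φ ⬝ᵥ u = 0) : vecMulVec u φ * vecMulVec u φ = 0 := by
  rw [vecMulVec_mul_vecMulVec, h0, zero_smul, vecMulVec_zero]

theorem rank_of_rep {u φ : Fin N → F} (hu : u ≠ 0) (hφ : φ ≠ 0) : (vecMulVec u φ).rank = 1 := by
  apply le_antisymm (Matrix.rank_vecMulVec_le u φ)
  by_contra h
  have h0 : (vecMulVec u φ).rank = 0 := by omega
  have h1 := CfsgLib.H9.SqZero.eq_zero_of_rank h0
  rw [Matrix.vecMulVec_eq_zero] at h1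
  tauto

theorem rank_sq_of_rep {t : SLn N F} {u φ : Fin N → F} (h : (t : Matrix (Fin N) (Fin N) F) = 1 + vecMulVec u φ) (h0 : φ ⬝ᵥ u = 0) (hu : u ≠ 0) (hφ : φ ≠ 0) :
    ((t : Matrix (Fin N) (Fin N) F) - 1).rank = 1 ∧ ((t : Matrix (Fin N) (Fin N) F) - 1) * ((t : Matrix (Fin N) (Fin N) F) - 1) = 0 := by
  rw [h, add_sub_cancel_left]
  exact ⟨rank_of_rep hu hφ, vmv_sq h0⟩

variable {n : ℕ}

/-- the transvections -/
def Dset (F : Type*) [Field F] (n : ℕ) : Set (SLn (n + 3) F) :=
  {t | ∃ c : F, c ≠ 0 ∧ ∃ g : SLn (n + 3) F, ((g⁻¹ * t * g : SLn (n + 3) F) : Matrix (Fin (n + 3)) (Fin (n + 3)) F) = Matrix.transvection 0 1 c}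

theorem zero_ne_one' : (0 : Fin (n + 3)) ≠ 1 := Fin.zero_ne_one

theorem rep_of_mem {t : SLn (n + 3) F} (ht : t ∈ Dset F n) :
    ∃ (u φ : Fin (n + 3) → F), (t : Matrix (Fin (n + 3)) (Fin (n + 3)) F) = 1 + vecMulVec u φ ∧ φ ⬝ᵥ u = 0 ∧ u ≠ 0 ∧ φ ≠ 0 := by
  obtain ⟨c, hc, g, h⟩ := ht
  exact exists_rep zero_ne_one' t g c hc h

/-- a base point -/
def tau (F : Type*) [Field F] (n : ℕ) : SLn (n + 3) F := Matrix.SpecialLinearGroup.transvection zero_ne_one' 1

theorem tau_coe : ((tau F n : SLn (n + 3) F) : Matrix (Fin (n + 3)) (Fin (n + 3)) F) = Matrix.transvection 0 1 1 := rfl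

theorem tau_mem : tau F n ∈ Dset F n := ⟨1, one_ne_zero, 1, by
  rw [inv_one, one_mul, mul_one]
  exact tau_coe⟩

theorem mem_of_rep {t : SLn (n + 3) F} {u φ : Fin (n + 3) → F} (h : (t : Matrix (Fin (n + 3)) (Fin (n + 3)) F) = 1 + vecMulVec u φ) (h0 : φ ⬝ᵥ u = 0) (hu : u ≠ 0) (hφ : φ ≠ 0) : t ∈ Dset F n := by
  obtain ⟨p, χ, e1, e2, e3, e4⟩ := rep_of_mem (tau_mem (F := F) (n := n))
  obtain ⟨h1, h2⟩ := rank_sq_of_rep h h0 hu hφ
  obtain ⟨h3, h4⟩ := rank_sq_of_rep e1 e2 e3 e4
  obtain ⟨g, hg⟩ := isConj_iff.mp (CfsgLib.H9.SqZero.main_2579 (by omega) t (tau F n) ⟨h1, h2⟩ ⟨h3, h4⟩)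
  refine ⟨1, one_ne_zero, g⁻¹, ?_⟩
  rw [inv_inv, hg]
  exact tau_coe

theorem conj_of_mem {a b : SLn (n + 3) F} (ha : a ∈ Dset F n) (hb : b ∈ Dset F n) : ∃ g : SLn (n + 3) F, b = g * a * g⁻¹ := by
  obtain ⟨u, φ, e1, e2, e3, e4⟩ := rep_of_mem ha
  obtain ⟨v, ψ, f1, f2, f3, f4⟩ := rep_of_mem hb
  obtain ⟨h1, h2⟩ := rank_sq_of_rep e1 e2 e3 e4
  obtain ⟨h3, h4⟩ := rank_sq_of_rep f1 f2 f3 f4
  obtain ⟨g, hg⟩ := isConj_iff.mp (CfsgLib.H9.SqZero.main_2579 (by omega) a b ⟨h1, h2⟩ ⟨h3, h4⟩)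
  exact ⟨g, hg.symm⟩

section alg

variable [CharP F 2] {A B : Matrix (Fin N) (Fin N) F}

theorem add_self' (X : Matrix (Fin N) (Fin N) F) : X + X = 0 := by
  ext i j
  exact CharTwo.add_self_eq_zero _

theorem one_add_sq (hA : A * A = 0) : (1 + A) * (1 + A) = 1 := by
  have e : (1 + A) * (1 + A) = 1 + (A + A) + A * A := by noncomm_ring
  rw [e, hA, add_self']
  simp

theorem sq_one_of_rep {t : SLn N F} {u φ : Fin N → F} (h : (t : Matrix (Fin N) (Fin N) F) = 1 + vecMulVec u φ) (h0 : φ ⬝ᵥ u = 0) : t * t = 1 := by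
  apply Subtype.ext
  change ((t * t : SLn N F) : Matrix (Fin N) (Fin N) F) = ((1 : SLn N F) : Matrix (Fin N) (Fin N) F)
  rw [coe_mul, h, coe_one, one_add_sq (vmv_sq h0)]

theorem square_3a (hA : A * A = 0) (hB : B * B = 0) (hBA : B * A = 0) : ((1 + A) * (1 + B)) * ((1 + A) * (1 + B)) = 1 + A * B := by
  have e : ((1 + A) * (1 + B)) * ((1 + A) * (1 + B)) = 1 + (A + A) + (B + B) + (A * B + A * B) + A * B + A * A + (A * A) * B + B * A + B * B + (B * A) * B + A * (B * A) + A * (B * B) + A * (B * A) * B := by noncomm_ring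
  rw [e, hA, hB, hBA]
  simp [add_self']

theorem square_3b (hA : A * A = 0) (hB : B * B = 0) (hAB : A * B = 0) : ((1 + A) * (1 + B)) * ((1 + A) * (1 + B)) = 1 + B * A := by
  have e : ((1 + A) * (1 + B)) * ((1 + A) * (1 + B)) = 1 + (A + A) + (B + B) + (A * B + A * B) + A * B + A * A + A * (A * B) + B * A + B * B + B * (A * B) + (A * B) * A + (A * B) * B + (A * B) * (A * B) := by noncomm_ring
  rw [e, hA, hB, hAB]
  simp [add_self']

theorem odd_key (hA : A * A = 0) (hB : B * B = 0) {c : F} (hc : c ≠ 0) (hABA : A * B * A = c • A) (hBAB : B * A * B = c • B) :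
    (∀ k : ℕ, ((1 + A) * (1 + B)) ^ k * ((1 + A) * (1 + B)) ^ k = 1 → ((1 + A) * (1 + B)) ^ k = 1) ∧
    (c = 1 → ((1 + A) * (1 + B)) ^ 3 = 1) := by
  classical
  obtain ⟨X, hX⟩ : ∃ X, X = (1 + A) * (1 + B) := ⟨_, rfl⟩
  obtain ⟨Y, hY⟩ : ∃ Y, Y = (1 + B) * (1 + A) := ⟨_, rfl⟩
  rw [← hX]
  have hXY : X * Y = 1 := by
    rw [hX, hY]
    calc (1 + A) * (1 + B) * ((1 + B) * (1 + A)) = (1 + A) * ((1 + B) * (1 + B)) * (1 + A) := by simp only [mul_assoc]
      _ = 1 := by rw [one_add_sq hB, mul_one, one_add_sq hA]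
  have hYX : Y * X = 1 := by
    rw [hX, hY]
    calc (1 + B) * (1 + A) * ((1 + A) * (1 + B)) = (1 + B) * ((1 + A) * (1 + A)) * (1 + B) := by simp only [mul_assoc]
      _ = 1 := by rw [one_add_sq hA, mul_one, one_add_sq hB]
  obtain ⟨Z, hZ⟩ : ∃ Z, Z = A * B + B * A := ⟨_, rfl⟩
  have hSum : X + Y = Z := by
    have e : X + Y = (1 + 1) + (A + A) + (B + B) + (A * B + B * A) := by
      rw [hX, hY]
      noncomm_ring
    rw [e, hZ]
    simp [add_self']
  obtain ⟨Nn, hNn⟩ : ∃ Nn, Nn = A + B + A * B := ⟨_, rfl⟩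
  have hXN : X = 1 + Nn := by
    rw [hX, hNn]
    noncomm_ring
  have hZA : Z * A = c • A := by rw [hZ, add_mul, hABA, mul_assoc B A A, hA, mul_zero, add_zero]
  have hZB : Z * B = c • B := by rw [hZ, add_mul, hBAB, mul_assoc A B B, hB, mul_zero, zero_add]
  have hZZ : Z * Z = c • Z := by
    calc Z * Z = Z * (A * B + B * A) := by rw [← hZ]
      _ = (Z * A) * B + (Z * B) * A := by rw [mul_add, mul_assoc, mul_assoc]
      _ = c • Z := by rw [hZA, hZB, hZ, smul_mul_assoc, smul_mul_assoc, smul_add]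
  have hZN : Z * Nn = c • Nn := by
    rw [hNn, mul_add, mul_add, hZA, hZB, ← mul_assoc, hZA, smul_mul_assoc, smul_add, smul_add]
  have h1 : X * Z = X * X + 1 := by rw [← hSum, mul_add, hXY]
  have h2 : Z * X = X * X + 1 := by rw [← hSum, add_mul, hYX]
  constructor
  · intro k hk
    obtain ⟨E, hE⟩ : ∃ E, E = c⁻¹ • Z := ⟨_, rfl⟩
    have hEE : E * E = E := by
      rw [hE, smul_mul_assoc, mul_smul_comm, hZZ, smul_smul, smul_smul]
      congr 1
      field_simp
    have hEN : E * Nn = Nn := by rw [hE, smul_mul_assoc, hZN, smul_smul, inv_mul_cancel₀ hc, one_smul]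
    have hXE : X * E = E * X := by rw [hE, mul_smul_comm, smul_mul_assoc, h1, h2]
    have hNE : Nn * E = Nn := by
      have h3 : (1 + Nn) * E = E * (1 + Nn) := by
        rw [← hXN]
        exact hXE
      rw [add_mul, mul_add, one_mul, mul_one] at h3
      rw [add_left_cancel h3, hEN]
    have hX1E : X * (1 - E) = 1 - E := by rw [hXN, add_mul, one_mul, mul_sub, mul_one, hNE, sub_self, add_zero]
    have hZE : Z * E = c • E := by
      rw [hE, mul_smul_comm, hZZ, smul_smul, inv_mul_cancel₀ hc, one_smul, smul_smul, mul_inv_cancel₀ hc, one_smul]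
    have h3 : X * (X * E) + E = c • (X * E) := by
      calc X * (X * E) + E = (X * X + 1) * E := by rw [add_mul, one_mul, mul_assoc]
        _ = (X * Z) * E := by rw [h1]
        _ = X * (Z * E) := mul_assoc _ _ _
        _ = c • (X * E) := by rw [hZE, mul_smul_comm]
    have hXXE : X * (X * E) = c • (X * E) + E := by
      calc X * (X * E) = (X * (X * E) + E) + E := by rw [add_assoc, add_self', add_zero]
        _ = _ := by rw [h3]
    have hpow : ∀ j : ℕ, ∃ r s : F, X ^ j * E = r • E + s • (X * E) := by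
      intro j
      induction j with
      | zero => exact ⟨1, 0, by simp⟩
      | succ j ih =>
        obtain ⟨r, s, h⟩ := ih
        refine ⟨s, r + s * c, ?_⟩
        rw [pow_succ', mul_assoc, h, mul_add, mul_smul_comm, mul_smul_comm, hXXE, smul_add, smul_smul, add_smul]
        abel
    have hW1 : ∀ j : ℕ, X ^ j * (1 - E) = 1 - E := by
      intro j
      induction j with
      | zero => simp
      | succ j ih => rw [pow_succ, mul_assoc, hX1E, ih]
    obtain ⟨r, s, hrs⟩ := hpow k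
    obtain ⟨W, hWd⟩ : ∃ W, W = X ^ k := ⟨_, rfl⟩
    rw [← hWd] at hk hrs ⊢
    have hWE : W * (1 - E) = 1 - E := by
      rw [hWd]
      exact hW1 k
    obtain ⟨P, hP⟩ : ∃ P, P = X * E := ⟨_, rfl⟩
    rw [← hP] at hrs hXXE
    obtain ⟨ρ, hρ⟩ : ∃ ρ, ρ = r - 1 := ⟨_, rfl⟩
    have hw : W - 1 = ρ • E + s • P := by
      have e1 : W = W * E + W * (1 - E) := by
        rw [mul_sub, mul_one]
        abel
      rw [hWE, hrs] at e1
      rw [hρ, sub_smul, one_smul, e1]
      abel
    have hww : (W - 1) * (W - 1) = 0 := by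
      have e2 : (W - 1) * (W - 1) = W * W - (W + W) + 1 := by noncomm_ring
      rw [e2, hk, add_self', sub_zero, add_self']
    have hEP : E * P = P := by
      rw [hP, ← mul_assoc, ← hXE, mul_assoc, hEE]
    have hPE : P * E = P := by
      rw [hP, mul_assoc, hEE]
    have hPP : P * P = c • P + E := by
      rw [← hXXE]
      calc P * P = (X * E) * (X * E) := by rw [hP]
        _ = X * (E * X) * E := by simp only [mul_assoc]
        _ = X * (X * E) * E := by rw [hXE]
        _ = X * (X * (E * E)) := by simp only [mul_assoc]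
        _ = X * P := by rw [hEE, hP]
    have e3 : (ρ • E + s • P) * (ρ • E + s • P) = (ρ * ρ + s * s) • E + (s * s * c) • P + (ρ * s) • (P + P) := by
      simp only [add_mul, mul_add, smul_mul_assoc, mul_smul_comm, hEE, hEP, hPE, hPP, smul_add, smul_smul, add_smul, mul_comm s ρ]
      rw [show s * (s * c) = s * s * c by ring]
      abel
    rw [hw, e3, add_self', smul_zero, add_zero] at hww
    have key0 : ∀ d : F, (d • E) * (d • E) = 0 → d • E = 0 := by
      intro d hd
      rw [smul_mul_assoc, mul_smul_comm, hEE, smul_smul] at hd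
      by_cases hd0 : d = 0
      · rw [hd0, zero_smul]
      · have h5 : E = 0 := by
          rcases smul_eq_zero.mp hd with h5 | h5
          · exact absurd (mul_self_eq_zero.mp h5) hd0
          · exact h5
        rw [h5, smul_zero]
    have hww' : (W - 1) * (W - 1) = 0 := by
      rw [hw, e3, add_self', smul_zero, add_zero]
      exact hww
    have hw0 : W - 1 = 0 := by
      by_cases hs : s = 0
      · have e4 : W - 1 = ρ • E := by rw [hw, hs, zero_smul, add_zero]
        rw [e4]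
        apply key0
        rw [← e4]
        exact hww'
      · have hsc : s * s * c ≠ 0 := mul_ne_zero (mul_ne_zero hs hs) hc
        have h6 : (s * s * c) • P = (ρ * ρ + s * s) • E := by
          calc (s * s * c) • P = ((ρ * ρ + s * s) • E + (s * s * c) • P) + (ρ * ρ + s * s) • E := by
                rw [add_comm ((ρ * ρ + s * s) • E), add_assoc, add_self', add_zero]
            _ = _ := by rw [hww, zero_add]
        have hP2 : P = ((s * s * c)⁻¹ * (ρ * ρ + s * s)) • E := by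
          rw [mul_smul, ← h6, smul_smul, inv_mul_cancel₀ hsc, one_smul]
        have e4 : W - 1 = (ρ + s * ((s * s * c)⁻¹ * (ρ * ρ + s * s))) • E := by
          rw [hw, add_smul, mul_smul s]
          congr 2
        rw [e4]
        apply key0
        rw [← e4]
        exact hww'
    exact sub_eq_zero.mp hw0
  · intro hc1
    have hZN' : Z * Nn = Nn := by rw [hZN, hc1, one_smul]
    have h5 : (X * X + 1) * (X - 1) = X * (X - 1) := by
      have e5 : X - 1 = Nn := by
        rw [hXN, add_sub_cancel_left]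
      rw [e5, ← h1, mul_assoc, hZN']
    have e6 : X ^ 3 = ((X * X + 1) * (X - 1) - X * (X - 1)) + (X * X + X * X) - (X + X) + 1 := by noncomm_ring
    rw [e6, h5, sub_self]
    simp [add_self']

end alg

section sl

variable [CharP F 2]

theorem ne_one_of_rep {t : SLn N F} {u φ : Fin N → F} (h : (t : Matrix (Fin N) (Fin N) F) = 1 + vecMulVec u φ) (hu : u ≠ 0) (hφ : φ ≠ 0) : t ≠ 1 := by
  intro h1
  rw [h1, coe_one] at h
  have h2 : vecMulVec u φ = 0 := by simpa using h
  rcases Matrix.vecMulVec_eq_zero.mp h2 with h3 | h3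
  · exact hu h3
  · exact hφ h3

theorem order_four (x : SLn (n + 3) F) {p χ : Fin (n + 3) → F} (h : ((x * x : SLn (n + 3) F) : Matrix (Fin (n + 3)) (Fin (n + 3)) F) = 1 + vecMulVec p χ)
    (h0 : χ ⬝ᵥ p = 0) (hp : p ≠ 0) (hχ : χ ≠ 0) : orderOf x = 4 ∧ x ^ 2 ∈ Dset F n := by
  have hxx : x ^ 2 = x * x := pow_two x
  have hm : x ^ 2 ∈ Dset F n := by
    rw [hxx]
    exact mem_of_rep h h0 hp hχ
  have hsq : (x * x) * (x * x) = 1 := sq_one_of_rep h h0
  refine ⟨?_, hm⟩
  have hne : x ^ 2 ≠ 1 := by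
    rw [hxx]
    exact ne_one_of_rep h hp hχ
  have h4 : orderOf x = 2 ^ (1 + 1) := orderOf_eq_prime_pow (p := 2) (n := 1) (by rw [pow_one]; exact hne) (by
    rw [show (2 : ℕ) ^ (1 + 1) = 2 * 2 by norm_num, pow_mul, pow_two x, pow_two (x * x)]
    exact hsq)
  exact h4.trans (by norm_num)

theorem pair_cases [Fintype F] {a b : SLn (n + 3) F} (ha : a ∈ Dset F n) (hb : b ∈ Dset F n) :
    (a * b = b * a ∧ (a * b) * (a * b) = 1) ∨ (Odd (orderOf (a * b)) ∧ (Fintype.card F = 2 → (a * b) ^ 3 = 1)) ∨ (orderOf (a * b) = 4 ∧ (a * b) ^ 2 ∈ Dset F n) := by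
  classical
  haveI : Finite (SLn (n + 3) F) := inferInstanceAs (Finite {A : Matrix (Fin (n + 3)) (Fin (n + 3)) F // A.det = 1})
  obtain ⟨u, φ, e1, e2, e3, e4⟩ := rep_of_mem ha
  obtain ⟨v, ψ, f1, f2, f3, f4⟩ := rep_of_mem hb
  obtain ⟨A, hA⟩ : ∃ A, A = vecMulVec u φ := ⟨_, rfl⟩
  obtain ⟨B, hB⟩ : ∃ B, B = vecMulVec v ψ := ⟨_, rfl⟩
  have hAA : A * A = 0 := by
    rw [hA]
    exact vmv_sq e2
  have hBB : B * B = 0 := by
    rw [hB]
    exact vmv_sq f2
  obtain ⟨α, hα⟩ : ∃ α, α = φ ⬝ᵥ v := ⟨_, rfl⟩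
  obtain ⟨β, hβ⟩ : ∃ β, β = ψ ⬝ᵥ u := ⟨_, rfl⟩
  have hAB : A * B = vecMulVec u (α • ψ) := by rw [hA, hB, vecMulVec_mul_vecMulVec, hα]
  have hBA : B * A = vecMulVec v (β • φ) := by rw [hA, hB, vecMulVec_mul_vecMulVec, hβ]
  have hX : ((a * b : SLn (n + 3) F) : Matrix (Fin (n + 3)) (Fin (n + 3)) F) = (1 + A) * (1 + B) := by
    rw [coe_mul, e1, f1, hA, hB]
  have hXX : ((a * b * (a * b) : SLn (n + 3) F) : Matrix (Fin (n + 3)) (Fin (n + 3)) F) = ((1 + A) * (1 + B)) * ((1 + A) * (1 + B)) := by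
    rw [coe_mul, hX]
  by_cases ha0 : α = 0
  · by_cases hb0 : β = 0
    · left
      have h1 : A * B = 0 := by rw [hAB, ha0, zero_smul, vecMulVec_zero]
      have h2 : B * A = 0 := by rw [hBA, hb0, zero_smul, vecMulVec_zero]
      have hc : a * b = b * a := by
        apply Subtype.ext
        change ((a * b : SLn (n + 3) F) : Matrix (Fin (n + 3)) (Fin (n + 3)) F) = ((b * a : SLn (n + 3) F) : Matrix (Fin (n + 3)) (Fin (n + 3)) F)
        rw [hX, coe_mul, e1, f1, ← hA, ← hB]
        calc (1 + A) * (1 + B) = 1 + A + B + A * B := by noncomm_ring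
          _ = 1 + B + A + B * A := by
            rw [h1, h2]
            abel
          _ = (1 + B) * (1 + A) := by noncomm_ring
      refine ⟨hc, ?_⟩
      have haa := sq_one_of_rep e1 e2
      have hbb := sq_one_of_rep f1 f2
      calc a * b * (a * b) = a * (b * a) * b := by simp only [mul_assoc]
        _ = a * (a * b) * b := by rw [← hc]
        _ = (a * a) * (b * b) := by simp only [mul_assoc]
        _ = 1 := by rw [haa, hbb, one_mul]
    · right
      right
      have h1 : A * B = 0 := by rw [hAB, ha0, zero_smul, vecMulVec_zero]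
      refine order_four (a * b) (p := v) (χ := β • φ) ?_ ?_ f3 (smul_ne_zero hb0 e4)
      · rw [hXX, square_3b hAA hBB h1, hBA]
      · rw [smul_dotProduct, ← hα, ha0, smul_zero]
  · by_cases hb0 : β = 0
    · right
      right
      have h1 : B * A = 0 := by rw [hBA, hb0, zero_smul, vecMulVec_zero]
      refine order_four (a * b) (p := u) (χ := α • ψ) ?_ ?_ e3 (smul_ne_zero ha0 f4)
      · rw [hXX, square_3a hAA hBB h1, hAB]
      · rw [smul_dotProduct, ← hβ, hb0, smul_zero]
    · right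
      left
      have hc : α * β ≠ 0 := mul_ne_zero ha0 hb0
      have hABA : A * B * A = (α * β) • A := by
        rw [hAB, hA, vecMulVec_mul_vecMulVec, smul_dotProduct, ← hβ, smul_eq_mul, vecMulVec_smul]
      have hBAB : B * A * B = (α * β) • B := by
        rw [hBA, hB, vecMulVec_mul_vecMulVec, smul_dotProduct, ← hα, smul_eq_mul, vecMulVec_smul, mul_comm]
      obtain ⟨k1, k2⟩ := odd_key hAA hBB hc hABA hBAB
      have hXk : ∀ k : ℕ, (((a * b) ^ k : SLn (n + 3) F) : Matrix (Fin (n + 3)) (Fin (n + 3)) F) = ((1 + A) * (1 + B)) ^ k := by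
        intro k
        rw [coe_pow, hX]
      refine ⟨?_, ?_⟩
      · by_contra hnot
        rw [Nat.not_odd_iff_even] at hnot
        obtain ⟨k, hk⟩ := hnot
        have hk0 : 0 < k := by
          have := orderOf_pos (a * b)
          omega
        have h1 : (a * b) ^ k * (a * b) ^ k = 1 := by
          rw [← pow_add, ← hk]
          exact pow_orderOf_eq_one _
        have h2 : ((1 + A) * (1 + B)) ^ k * ((1 + A) * (1 + B)) ^ k = 1 := by
          rw [← hXk k, ← coe_mul, h1, coe_one]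
        have h3 := k1 k h2
        have h4 : (a * b) ^ k = 1 := by
          apply Subtype.ext
          change (((a * b) ^ k : SLn (n + 3) F) : Matrix (Fin (n + 3)) (Fin (n + 3)) F) = ((1 : SLn (n + 3) F) : Matrix (Fin (n + 3)) (Fin (n + 3)) F)
          rw [hXk, h3, coe_one]
        have h5 := orderOf_dvd_of_pow_eq_one h4
        have h6 := Nat.le_of_dvd hk0 h5
        omega
      · intro hF
        have one_of : ∀ x : F, x ≠ 0 → x = 1 := by
          intro x hx
          have := FiniteField.pow_card_sub_one_eq_one x hx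
          rw [hF] at this
          simpa using this
        have h3 := k2 (by rw [one_of α ha0, one_of β hb0, one_mul])
        apply Subtype.ext
        change (((a * b) ^ 3 : SLn (n + 3) F) : Matrix (Fin (n + 3)) (Fin (n + 3)) F) = ((1 : SLn (n + 3) F) : Matrix (Fin (n + 3)) (Fin (n + 3)) F)
        rw [hXk, h3, coe_one]

theorem main_5058 (F : Type*) [Field F] [Fintype F] [CharP F 2] (n : ℕ) :
    Cfsg.IsRootInvolutionClass (Dset F n) ∧ (Fintype.card F = 2 → Cfsg.IsThreeFourPlusTranspositionSet (Dset F n)) := by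
  classical
  have hset : Cfsg.IsRootInvolutionSet (Dset F n) := by
    refine ⟨?_, ?_, ?_, ?_⟩
    · intro d hd
      obtain ⟨u, φ, e1, e2, e3, e4⟩ := rep_of_mem hd
      exact orderOf_eq_prime (p := 2) (by
        rw [pow_two]
        exact sq_one_of_rep e1 e2) (ne_one_of_rep e1 e3 e4)
    · rw [eq_top_iff]
      intro M _
      refine CfsgLib.ClassGeo.SL_transvection_induction (fun M => M ∈ Subgroup.closure (Dset F n)) M ?_ (fun A B hA hB => mul_mem hA hB)
      intro i j hij a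
      by_cases ha : a = 0
      · have h1 : (Matrix.SpecialLinearGroup.transvection hij a : SLn (n + 3) F) = 1 := by
          apply Subtype.ext
          change Matrix.transvection i j a = ((1 : SLn (n + 3) F) : Matrix (Fin (n + 3)) (Fin (n + 3)) F)
          rw [ha, coe_one, Matrix.transvection_zero]
        rw [h1]
        exact one_mem _
      · apply Subgroup.subset_closure
        have h0 : ((1⁻¹ * Matrix.SpecialLinearGroup.transvection hij a * 1 : SLn (n + 3) F) : Matrix (Fin (n + 3)) (Fin (n + 3)) F) = Matrix.transvection i j a := by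
          rw [inv_one, one_mul, mul_one]
          rfl
        obtain ⟨u, φ, e1, e2, e3, e4⟩ := exists_rep hij _ 1 a ha h0
        exact mem_of_rep e1 e2 e3 e4
    · rintro d ⟨c, hc, g₀, h⟩ g
      refine ⟨c, hc, g * g₀, ?_⟩
      rw [show (g * g₀)⁻¹ * (g * d * g⁻¹) * (g * g₀) = g₀⁻¹ * d * g₀ by group]
      exact h
    · intro a ha b hb
      rcases pair_cases ha hb with ⟨h, _⟩ | ⟨h, _⟩ | h
      · exact Or.inl h
      · exact Or.inr (Or.inl h)
      · exact Or.inr (Or.inr h)
  refine ⟨⟨hset, ⟨tau F n, tau_mem⟩, fun a ha b hb => conj_of_mem ha hb⟩, fun hF => ⟨hset, fun a ha b hb hodd => ?_⟩⟩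
  rcases pair_cases ha hb with ⟨_, h⟩ | ⟨_, h⟩ | ⟨h, _⟩
  · left
    have h1 : orderOf (a * b) ∣ 2 := orderOf_dvd_of_pow_eq_one (by
      rw [pow_two]
      exact h)
    rcases (Nat.dvd_prime Nat.prime_two).mp h1 with h2 | h2
    · exact h2
    · rw [h2] at hodd
      exact absurd hodd (by decide)
  · exact (Nat.dvd_prime Nat.prime_three).mp (orderOf_dvd_of_pow_eq_one (h hF))
  · rw [h] at hodd
    exact absurd hodd (by decide)

end sl

end CfsgLib.RootInv
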